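import Mathlib

set_option autoImplicit false

/-! # Monomial matrices of any size -/

namespace Cfsg.Agent.Lib.Helper5.SU3

open Matrix

variable {F : Type*} [Field F] {n : ℕ}

/-- monomial matrices -/
def monoN (σ : Equiv.Perm (Fin n)) (d : Fin n → F) :
    Matrix (Fin n) (Fin n) F := fun x y => if x = σ y then d y else 0

theorem monoN_mulVec (σ : Equiv.Perm (Fin n)) (d w : Fin n → F) :
    monoN σ d *ᵥ w = (fun i => d i * w i) ∘ σ.symm := by
  ext x
  simp only [mulVec, dotProduct, monoN, Function.comp_apply]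
  rw [Finset.sum_eq_single (σ.symm x)]
  · simp
  · intro y _ hy
    rw [if_neg, zero_mul]
    intro h
    apply hy
    rw [h]; simp
  · simp

theorem monoN_eq (σ : Equiv.Perm (Fin n)) (d : Fin n → F) :
    monoN σ d = (σ⁻¹).permMatrix F * Matrix.diagonal d := by
  ext x y
  rw [Matrix.mul_diagonal]
  simp only [monoN, Equiv.Perm.permMatrix, Equiv.toPEquiv_apply, PEquiv.toMatrix_apply,
    Option.mem_def, Option.some.injEq]
  by_cases h : x = σ y
  · subst h; simp
  · rw [if_neg h, if_neg, zero_mul]
    intro h'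
    apply h
    rw [← h']; simp

theorem det_monoN (σ : Equiv.Perm (Fin n)) (d : Fin n → F) :
    (monoN σ d).det = (Equiv.Perm.sign σ⁻¹ : ℤ) * ∏ i, d i := by
  rw [monoN_eq, Matrix.det_mul, Matrix.det_permutation, Matrix.det_diagonal]

end Cfsg.Agent.Lib.Helper5.SU3
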