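import Mathlib

set_option autoImplicit false

/-! # SU_3(5): a concrete field with 25 elements and the invariant sets -/

namespace Cfsg.Agent.Lib.Helper5.SU3

open Matrix

/-- a concrete field with 25 elements, `t ^ 2 = 2` -/
abbrev K25 := QuadraticAlgebra (ZMod 5) 2 0

instance factK25 : Fact (∀ r : ZMod 5, r ^ 2 ≠ 2 + 0 * r) := ⟨by decide⟩

instance fintypeK25 : Fintype K25 :=
  Fintype.ofEquiv _ (QuadraticAlgebra.equivProd (2 : ZMod 5) 0).symm

theorem card_K25 : Fintype.card K25 = 25 := by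
  rw [Fintype.card_congr (QuadraticAlgebra.equivProd (2 : ZMod 5) 0)]
  simp

/-- the norm form -/
def nrm {R : Type*} [CommRing R] (a b c : R) : R := a ^ 6 + b ^ 6 + c ^ 6

/-- the invariant set of `3.A_7`: monomial description -/
def cndM {R : Type*} [CommRing R] (a b c : R) : Prop :=
  nrm a b c = 1 ∧ ((a * b * c) ^ 2 = 2 ∨ (a * b * c) ^ 2 = 4 ∨
    (a * b * c = 0 ∧ a ^ 6 ≠ 2 ∧ b ^ 6 ≠ 2 ∧ c ^ 6 ≠ 2))

/-- the invariant set of `3.A_7`: orthogonal description -/
def cndQ {R : Type*} [CommRing R] (a b c : R) : Prop :=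
  nrm a b c = 1 ∧ ((a ^ 2 + b ^ 2 + c ^ 2) ^ 3 = 0 ∨ (a ^ 2 + b ^ 2 + c ^ 2) ^ 3 = 2 ∨
    (a ^ 2 + b ^ 2 + c ^ 2) ^ 3 = 4 ∨
    ((a ^ 2 + b ^ 2 + c ^ 2) ^ 3 = 1 ∧ a * b ^ 5 = b * a ^ 5 ∧ a * c ^ 5 = c * a ^ 5 ∧
      b * c ^ 5 = c * b ^ 5))

instance decM (a b c : K25) : Decidable (cndM a b c) := by unfold cndM; infer_instance
instance decQ (a b c : K25) : Decidable (cndQ a b c) := by unfold cndQ; infer_instance

set_option maxRecDepth 1000000 in
theorem cndM_iff_cndQ_model : ∀ a b c : K25, cndM a b c ↔ cndQ a b c := by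
  decide +kernel

theorem five_K25 : (5 : K25) = 0 := by decide +kernel

theorem exists_t_K25 : ∃ t : K25, t ^ 2 = 2 := by decide +kernel

/-- the invariant set, on vectors -/
def cndV {R : Type*} [CommRing R] (w : Fin 3 → R) : Prop := cndM (w 0) (w 1) (w 2)

/-- the extra element (a real orthogonal matrix) -/
def G1 (R : Type*) [CommRing R] : Matrix (Fin 3) (Fin 3) R := !![1, 1, 2; 1, 2, 1; 2, 1, 1]

/-- the stabiliser of the invariant set -/
def M0 (F : Type*) [Field F] : Subgroup (GL (Fin 3) F) where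
  carrier := {g | ∀ w, cndV ((g : Matrix (Fin 3) (Fin 3) F) *ᵥ w) ↔ cndV w}
  mul_mem' {a b} ha hb := by
    intro w
    rw [Units.val_mul, ← Matrix.mulVec_mulVec, ha, hb]
  one_mem' := by intro w; simp
  inv_mem' {a} ha := by
    intro w
    rw [← ha, Matrix.mulVec_mulVec, ← Units.val_mul, mul_inv_cancel, Units.val_one,
      Matrix.one_mulVec]

end Cfsg.Agent.Lib.Helper5.SU3
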