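import Mathlib
import Cfsg.Agent.Lib.Helper5.SU3.Model
import Cfsg.Agent.Lib.Helper5.SU3.Mono

set_option autoImplicit false

/-! # SU_3(5): the invariant set is stable under the monomial group -/

namespace Cfsg.Agent.Lib.Helper5.SU3

open Matrix

theorem cndV_iff {R : Type*} [CommRing R] (w : Fin 3 → R) :
    cndV w ↔ (∑ i, w i ^ 6 = 1 ∧ ((∏ i, w i) ^ 2 = 2 ∨ (∏ i, w i) ^ 2 = 4 ∨
      (∏ i, w i = 0 ∧ ∀ i, w i ^ 6 ≠ 2))) := by
  simp only [cndV, cndM, nrm, Fin.sum_univ_three, Fin.prod_univ_three, Fin.forall_fin_succ]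
  simp [Fin.succ]

theorem cndV_perm {R : Type*} [CommRing R] (σ : Equiv.Perm (Fin 3)) (w : Fin 3 → R) :
    cndV (w ∘ σ) ↔ cndV w := by
  rw [cndV_iff, cndV_iff]
  simp only [Function.comp_apply]
  have e1 : ∑ i, w (σ i) ^ 6 = ∑ i, w i ^ 6 := Equiv.sum_comp σ (fun i => w i ^ 6)
  have e2 : ∏ i, w (σ i) = ∏ i, w i := Equiv.prod_comp σ w
  have e3 : (∀ i, w (σ i) ^ 6 ≠ 2) ↔ ∀ i, w i ^ 6 ≠ 2 :=
    ⟨fun h i => by simpa using h (σ.symm i), fun h i => h (σ i)⟩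
  rw [e1, e2, e3]

theorem cndV_scale {R : Type*} [CommRing R] [IsDomain R] (d w : Fin 3 → R)
    (h6 : ∀ i, d i ^ 6 = 1) (hp : (∏ i, d i) ^ 2 = 1) :
    cndV (fun i => d i * w i) ↔ cndV w := by
  rw [cndV_iff, cndV_iff]
  have hp0 : ∏ i, d i ≠ 0 := by
    intro h
    rw [h] at hp
    simp at hp
  simp only [mul_pow, h6, one_mul, Finset.prod_mul_distrib, hp, mul_eq_zero, hp0, false_or]

variable {F : Type*} [Field F]

/-- F1 -/
theorem cndV_mono (σ : Equiv.Perm (Fin 3)) (d : Fin 3 → F) (hdet : (monoN σ d).det = 1)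
    (h6 : ∀ i, d i ^ 6 = 1) (w : Fin 3 → F) : cndV (monoN σ d *ᵥ w) ↔ cndV w := by
  rw [det_monoN] at hdet
  have hp : (∏ i, d i) ^ 2 = 1 := by
    rcases Int.units_eq_one_or (Equiv.Perm.sign σ⁻¹) with h | h
    · rw [h] at hdet
      have : ∏ i, d i = 1 := by simpa using hdet
      rw [this, one_pow]
    · rw [h] at hdet
      have : ∏ i, d i = -1 := by
        have h' : -(∏ i, d i) = 1 := by simpa using hdet
        rw [← h', neg_neg]
      rw [this]; ring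
  rw [monoN_mulVec, cndV_perm, cndV_scale d w h6 hp]

end Cfsg.Agent.Lib.Helper5.SU3
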