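import Mathlib
import Cfsg.Agent.Lib.Helper5.SU3.Model
import Cfsg.Agent.Lib.Helper5.SU3.Mono
import Cfsg.Agent.Lib.Helper5.SUAsch.Bridge
import Cfsg.Agent.Lib.Helper9.AschU.Base

set_option autoImplicit false

/-! # SU_3: frames and monomial matrices -/

namespace Cfsg.Agent.Lib.Helper5.SU3

open Cfsg Cfsg.Geo Matrix Cfsg.Agent.Lib.Helper5.SUAsch Cfsg.Agent.Lib.Helper13
  Cfsg.Agent.Lib.Helper9.AschU
open scoped MatrixGroups

variable {F : Type*} [Field F] [Fintype F]

/-- an orthonormal frame for a non-degenerate decomposition into lines -/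
theorem exists_frame_unitary3 {q : ℕ} (hF : Fintype.card F = q ^ 2)
    (D : Fin 3 → Submodule F (Fin 3 → F))
    (hD : IsNondegenerateMDecomposition (hermForm 3 F q) 1 D) :
    ∃ B : GL (Fin 3) F, B ∈ GU 3 F q ∧ ∀ g ∈ decompositionStabilizer D,
      ∃ (σ : Equiv.Perm (Fin 3)) (d : Fin 3 → F),
        ((B⁻¹ * g * B : GL (Fin 3) F) : Matrix (Fin 3) (Fin 3) F) = monoN σ d := by
  have hv : ∀ i, ∃ v : Fin 3 → F, v ≠ 0 ∧ v ∈ D i ∧ (∀ w ∈ D i, ∃ c : F, w = c • v) ∧
      hermForm 3 F q v v = 1 := by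
    intro i
    obtain ⟨v, hv0, hv⟩ := finrank_eq_one_iff'.mp (hD.decomp.finrank_eq i)
    have hv0' : (v : Fin 3 → F) ≠ 0 := fun h => hv0 (Subtype.ext h)
    have hspan : ∀ w ∈ D i, ∃ c : F, w = c • (v : Fin 3 → F) := by
      intro w hw
      obtain ⟨c, hc⟩ := hv ⟨w, hw⟩
      exact ⟨c, by rw [← Submodule.coe_smul, hc]⟩
    obtain ⟨⟨x, hx, hxv⟩, -⟩ := hD.nondegenerate i v v.2 hv0'
    obtain ⟨c, rfl⟩ := hspan x hx
    rw [hermForm_smul_left] at hxv
    have ha : hermForm 3 F q (v : Fin 3 → F) v ≠ 0 := right_ne_zero_of_mul hxv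
    set a := hermForm 3 F q (v : Fin 3 → F) v with hadef
    have haq : a ^ q = a := hermForm_swap hF _ _
    obtain ⟨l, hl⟩ := norm_surjective hF a⁻¹ (by rw [inv_pow, haq])
    have hl0 : l ≠ 0 := by
      rintro rfl
      rw [zero_pow (by omega)] at hl
      exact (inv_ne_zero ha) hl.symm
    refine ⟨l • (v : Fin 3 → F), smul_ne_zero hl0 hv0', (D i).smul_mem l v.2, ?_, ?_⟩
    · intro w hw
      obtain ⟨c, rfl⟩ := hspan w hw
      exact ⟨c * l⁻¹, by rw [smul_smul, mul_assoc, inv_mul_cancel₀ hl0, mul_one]⟩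
    · rw [hermForm_smul_left, hermForm_smul_right, ← hadef, ← mul_assoc, ← pow_succ', hl,
        inv_mul_cancel₀ ha]
  choose v hv0 hvD hvs hv1 using hv
  have hli : LinearIndependent F v := hD.decomp.indep.linearIndependent D hvD hv0
  let B₀ : Matrix (Fin 3) (Fin 3) F := Matrix.of fun x y => v y x
  have hcol : B₀.col = v := by
    ext y x; rfl
  have hu : IsUnit B₀ := by
    rw [← Matrix.linearIndependent_cols_iff_isUnit, hcol]
    exact hli
  obtain ⟨B, hB⟩ := hu
  refine ⟨B, ?_, ?_⟩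
  · rw [mem_GU_iff_adj hF, hB]
    ext i j
    have h1 : (adj q B₀ * B₀) i j = hermForm 3 F q (v j) (v i) := by
      simp only [Matrix.mul_apply, adj, B₀, Matrix.of_apply, hermForm]
      exact Finset.sum_congr rfl fun k _ => mul_comm _ _
    rw [h1]
    by_cases hij : i = j
    · subst hij; rw [hv1, Matrix.one_apply_eq]
    · rw [Matrix.one_apply_ne hij]
      exact hD.orthogonal j i (Ne.symm hij) _ (hvD j) _ (hvD i)
  rintro g ⟨σ, hσ⟩
  have hg : ∀ i, ∃ c : F, (g : Matrix (Fin 3) (Fin 3) F) *ᵥ v i = c • v (σ i) := by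
    intro i
    apply hvs
    rw [← hσ i]
    exact ⟨v i, hvD i, by simp⟩
  choose d hd using hg
  refine ⟨σ, d, ?_⟩
  have key : (g : Matrix (Fin 3) (Fin 3) F) * B₀ = B₀ * monoN σ d := by
    ext x y
    have h1 : ((g : Matrix (Fin 3) (Fin 3) F) * B₀) x y =
        ((g : Matrix (Fin 3) (Fin 3) F) *ᵥ v y) x := by
      simp [Matrix.mul_apply, Matrix.mulVec, dotProduct, B₀]
    rw [h1, hd y, Matrix.mul_apply, Finset.sum_eq_single (σ y)]
    · simp [monoN, B₀, mul_comm]
    · intro k _ hk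
      simp [monoN, hk]
    · simp
  rw [Units.val_mul, Units.val_mul, hB, mul_assoc, key, ← mul_assoc, ← hB, ← Units.val_mul,
    inv_mul_cancel, Units.val_one, one_mul]

omit [Fintype F] in
/-- the entries of a unitary monomial matrix -/
theorem mono_unitary3 {q : ℕ} (σ : Equiv.Perm (Fin 3)) (d : Fin 3 → F)
    (h : ∀ u v, hermForm 3 F q (monoN σ d *ᵥ u) (monoN σ d *ᵥ v) = hermForm 3 F q u v) (i : Fin 3) :
    d i ^ (q + 1) = 1 := by
  have h1 := h (Pi.single i 1) (Pi.single i 1)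
  rw [hermForm_single_left, Pi.single_eq_same, one_pow, monoN_mulVec] at h1
  rw [← h1]
  simp only [hermForm, Function.comp_apply]
  rw [Equiv.sum_comp σ.symm (fun k => d k * (Pi.single i 1 : Fin 3 → F) k *
    (d k * (Pi.single i 1 : Fin 3 → F) k) ^ q), Finset.sum_eq_single i]
  · simp [pow_succ']
  · intro k _ hk
    simp [Pi.single_eq_of_ne hk]
  · simp

end Cfsg.Agent.Lib.Helper5.SU3
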