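import Mathlib
import Cfsg.Agent.Lib.Helper5.SU3.Model
import Cfsg.Agent.Lib.Helper5.SU3.Mono
import Cfsg.Agent.Lib.Helper5.SU3.F1
import Cfsg.Agent.Lib.Helper5.SU3.F2

set_option autoImplicit false

/-! # SU_3(5): frame stabilisers and orthogonal subfield groups are not maximal (assembly,
hypothesis form) -/

namespace Cfsg.Agent.Lib.Helper5.SU3

open Cfsg Cfsg.Geo Matrix Cfsg.Agent.Lib.Helper5.SUAsch Cfsg.Agent.Lib.Helper13
  Cfsg.Agent.Lib.Helper9.AschU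
open scoped MatrixGroups

variable {F : Type*} [Field F]

theorem G1_ne_mono (σ : Equiv.Perm (Fin 3)) (d : Fin 3 → F) : G1 F ≠ monoN σ d := by
  intro h
  have e1 : (1 : F) = if (0 : Fin 3) = σ 1 then d 1 else 0 := by
    have := congrFun (congrFun h 0) 1
    simpa [G1, monoN] using this
  have e2 : (1 : F) = if (2 : Fin 3) = σ 1 then d 1 else 0 := by
    have := congrFun (congrFun h 2) 1
    simpa [G1, monoN] using this
  by_cases h01 : (0 : Fin 3) = σ 1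
  · rw [if_neg (by rw [← h01]; decide)] at e2
    exact one_ne_zero e2
  · rw [if_neg h01] at e1
    exact one_ne_zero e1

variable [Fintype F]

/-- the common skeleton: a subgroup `H₀` of `SU` which, after conjugation by `B ∈ GU`, lies in `M0`
but does not contain all of `M0 ⊓ SU`, is not maximal -/
theorem not_max_of_conj {q : ℕ} (B : GL (Fin 3) F) (hBU : B ∈ GU 3 F q)
    (H : Subgroup (GL (Fin 3) F)) (hH : ∀ g ∈ H, g ∈ SUg 3 F q → B⁻¹ * g * B ∈ M0 F)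
    (a : GL (Fin 3) F) (haSU : a ∈ SUg 3 F q) (haM : a ∈ M0 F) (haH : B * a * B⁻¹ ∉ H)
    (s : GL (Fin 3) F) (hsSU : s ∈ SUg 3 F q) (hsM : s ∉ M0 F) :
    ¬ IsMaximalIn (SUg 3 F q) (H ⊓ SUg 3 F q) := by
  rintro ⟨-, hmax⟩
  have hSLn : (specialLinear (Fin 3) F).Normal := by
    unfold specialLinear; infer_instance
  let M : Subgroup (GL (Fin 3) F) :=
    (M0 F).comap (MulAut.conj B⁻¹).toMonoidHom ⊓ SUg 3 F q
  have hmem : ∀ g, g ∈ M ↔ (B⁻¹ * g * B ∈ M0 F ∧ g ∈ SUg 3 F q) := by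
    intro g
    simp [M, Subgroup.mem_inf, Subgroup.mem_comap, MulAut.conj_apply]
  have hconj' : ∀ g, g ∈ SUg 3 F q → B * g * B⁻¹ ∈ SUg 3 F q := fun g hg =>
    ⟨(GU 3 F q).mul_mem ((GU 3 F q).mul_mem hBU hg.1) ((GU 3 F q).inv_mem hBU),
      hSLn.conj_mem g hg.2 B⟩
  have hle : H ⊓ SUg 3 F q ≤ M := by
    intro g hg
    obtain ⟨hg1, hg2⟩ := Subgroup.mem_inf.mp hg
    rw [hmem]
    exact ⟨hH g hg1 hg2, hg2⟩
  rcases hmax M hle inf_le_right with hM | hM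
  · have h1 : B * a * B⁻¹ ∈ M := by
      rw [hmem]
      refine ⟨?_, hconj' a haSU⟩
      have : B⁻¹ * (B * a * B⁻¹) * B = a := by group
      rw [this]
      exact haM
    rw [hM] at h1
    exact haH (Subgroup.mem_inf.mp h1).1
  · have h1 : B * s * B⁻¹ ∈ M := by
      rw [hM]; exact hconj' s hsSU
    rw [hmem] at h1
    have : B⁻¹ * (B * s * B⁻¹) * B = s := by group
    rw [this] at h1
    exact hsM h1.1

/-- F5, hypothesis form -/
theorem frame3_q5_not_max_of (hF : Fintype.card F = 5 ^ 2)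
    (hG1 : ∃ a : GL (Fin 3) F, (a : Matrix (Fin 3) (Fin 3) F) = G1 F ∧ a ∈ SUg 3 F 5 ∧ a ∈ M0 F)
    (hs : ∃ s ∈ SUg 3 F 5, s ∉ M0 F)
    (D : Fin 3 → Submodule F (Fin 3 → F))
    (hD : IsNondegenerateMDecomposition (hermForm 3 F 5) 1 D) :
    ¬ IsMaximalIn (SUg 3 F 5) (decompositionStabilizer D ⊓ SUg 3 F 5) := by
  obtain ⟨B, hBU, hB⟩ := exists_frame_unitary3 hF D hD
  obtain ⟨a, ha, haSU, haM⟩ := hG1
  obtain ⟨s, hsSU, hsM⟩ := hs
  have hSLn : (specialLinear (Fin 3) F).Normal := by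
    unfold specialLinear; infer_instance
  have hconj : ∀ g, g ∈ SUg 3 F 5 → B⁻¹ * g * B ∈ SUg 3 F 5 := by
    intro g hg
    refine ⟨(GU 3 F 5).mul_mem ((GU 3 F 5).mul_mem ((GU 3 F 5).inv_mem hBU) hg.1) hBU, ?_⟩
    have := hSLn.conj_mem g hg.2 B⁻¹
    simpa using this
  refine not_max_of_conj B hBU _ ?_ a haSU haM ?_ s hsSU hsM
  · intro g hg1 hg2
    obtain ⟨σ, d, hσ⟩ := hB g hg1
    intro w
    have h2 := (mem_SUg_iff _).1 (hconj g hg2)
    rw [hσ] at h2 ⊢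
    exact cndV_mono σ d h2.2 (fun i => mono_unitary3 σ d h2.1 i) w
  · intro h
    obtain ⟨σ, d, hσ⟩ := hB _ h
    have : B⁻¹ * (B * a * B⁻¹) * B = a := by group
    rw [this, ha] at hσ
    exact G1_ne_mono σ d hσ

/-- S5, hypothesis form -/
theorem so3_q5_not_max_of (F₀ : Subfield F) (P : GL (Fin 3) F)
    (hT : ∃ T ∈ GU 3 F 5, ∀ g : GL (Fin 3) F,
      g ∈ subfieldSubgroup F₀ P ↔ T⁻¹ * g * T ∈ subfieldSubgroup F₀ 1)
    (hle : subfieldSubgroup F₀ (1 : GL (Fin 3) F) ⊓ SUg 3 F 5 ≤ M0 F)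
    (he : ∃ e ∈ SUg 3 F 5, e ∈ M0 F ∧ e ∉ subfieldSubgroup F₀ (1 : GL (Fin 3) F))
    (hs : ∃ s ∈ SUg 3 F 5, s ∉ M0 F) :
    ¬ IsMaximalIn (SUg 3 F 5) (subfieldSubgroup F₀ P ⊓ SUg 3 F 5) := by
  obtain ⟨T, hTU, hT⟩ := hT
  obtain ⟨e, heSU, heM, heN⟩ := he
  obtain ⟨s, hsSU, hsM⟩ := hs
  have hSLn : (specialLinear (Fin 3) F).Normal := by
    unfold specialLinear; infer_instance
  have hconj : ∀ g, g ∈ SUg 3 F 5 → T⁻¹ * g * T ∈ SUg 3 F 5 := by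
    intro g hg
    refine ⟨(GU 3 F 5).mul_mem ((GU 3 F 5).mul_mem ((GU 3 F 5).inv_mem hTU) hg.1) hTU, ?_⟩
    have := hSLn.conj_mem g hg.2 T⁻¹
    simpa using this
  refine not_max_of_conj T hTU _ ?_ e heSU heM ?_ s hsSU hsM
  · intro g hg1 hg2
    exact hle (Subgroup.mem_inf.2 ⟨(hT g).1 hg1, hconj g hg2⟩)
  · intro h
    have h1 := (hT _).1 h
    have : T⁻¹ * (T * e * T⁻¹) * T = e := by group
    rw [this] at h1
    exact heN h1

end Cfsg.Agent.Lib.Helper5.SU3
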