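import Mathlib
import Cfsg.Agent.Lib.Helper5.SU3.Model
import Cfsg.Agent.Lib.Helper5.SUAsch.Bridge

set_option autoImplicit false

/-! # SU_3(5): a transvection that does not stabilise the invariant set (hypothesis form) -/

namespace Cfsg.Agent.Lib.Helper5.SU3

open Cfsg Cfsg.Geo Matrix Cfsg.Agent.Lib.Helper5.SUAsch Cfsg.Agent.Lib.Helper5
  Cfsg.Agent.Lib.Helper13
open scoped MatrixGroups

variable {F : Type*} [Field F] [Fintype F]

/-- F4, hypothesis form -/
theorem exists_not_mem_M0_of (hF : Fintype.card F = 5 ^ 2) (h5 : (5 : F) = 0) (t : F)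
    (ht : t ^ 2 = 2) : ∃ s ∈ SUg 3 F 5, s ∉ M0 F := by
  have h10 : (1 : F) ≠ 0 := one_ne_zero
  have h20 : (2 : F) ≠ 0 := by
    intro h
    apply h10
    linear_combination h5 - 2 * h
  have h40 : (4 : F) ≠ 0 := by
    intro h
    apply h10
    linear_combination h5 - h
  have h12 : (1 : F) ≠ 2 := by
    intro h
    apply h10
    linear_combination -h
  have hc : t + t ^ 5 = 0 := by
    linear_combination (t ^ 3 + 2 * t) * ht + t * h5
  have hr : hermForm 3 F 5 ![1, 2, 0] ![1, 2, 0] = 0 := by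
    simp [hermForm, Fin.sum_univ_three]
    linear_combination 13 * h5
  obtain ⟨τ, hτSU, hτ⟩ := exists_tv hF ![1, 2, 0] t hr hc
  refine ⟨τ, hτSU, fun hM => ?_⟩
  have h1 : cndV (![1, 0, 0] : Fin 3 → F) := by
    simp only [cndV, cndM, nrm, Matrix.cons_val_zero, Matrix.cons_val_one, Matrix.cons_val]
    refine ⟨by ring, Or.inr (Or.inr ⟨by ring, ?_, ?_, ?_⟩)⟩
    · rw [one_pow]; exact h12
    · rw [zero_pow (by norm_num)]; exact h20.symm
    · rw [zero_pow (by norm_num)]; exact h20.symm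
  have h2 := (hM _).mpr h1
  have h4 : (τ : Matrix (Fin 3) (Fin 3) F) *ᵥ ![1, 0, 0] = ![1 + t, 2 * t, 0] := by
    rw [hτ]
    have : hermForm 3 F 5 ![1, 0, 0] ![1, 2, 0] = 1 := by
      simp [hermForm, Fin.sum_univ_three]
    rw [this, mul_one]
    ext i
    fin_cases i <;> simp [mul_comm]
  rw [h4] at h2
  simp only [cndV, cndM, nrm, Matrix.cons_val_zero, Matrix.cons_val_one, Matrix.cons_val] at h2
  obtain ⟨-, h | h | ⟨-, -, h, -⟩⟩ := h2
  · apply h20
    linear_combination -h
  · apply h40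
    linear_combination -h
  · apply h
    linear_combination (64 * t ^ 4 + 128 * t ^ 2 + 256) * ht + 102 * h5

end Cfsg.Agent.Lib.Helper5.SU3
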