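import Mathlib
import Cfsg.Agent.Lib.Helper5.SU3.Model
import Cfsg.Agent.Lib.Helper5.SUAsch.Bridge
import Cfsg.Agent.Lib.Helper9.AschU.Base

set_option autoImplicit false

/-! # SU_3(5): real similitudes stabilise the invariant set (hypothesis form) -/

namespace Cfsg.Agent.Lib.Helper5.SU3

open Cfsg Cfsg.Geo Matrix Cfsg.Agent.Lib.Helper5.SUAsch Cfsg.Agent.Lib.Helper5
  Cfsg.Agent.Lib.Helper13 Cfsg.Agent.Lib.Helper9.AschU
open scoped MatrixGroups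

variable {F : Type*} [Field F] [Fintype F]

omit [Fintype F] in
theorem adj_smul_real (c : F) (A : Matrix (Fin 3) (Fin 3) F) (hA : ∀ i j, A i j ^ 5 = A i j) :
    adj 5 (c • A) = c ^ 5 • Aᵀ := by
  ext i j
  simp [adj, mul_pow, hA]

theorem cndQ_of_real (hF : Fintype.card F = 5 ^ 2) (g : GL (Fin 3) F) (hg : g ∈ SUg 3 F 5) (c : F)
    (A : Matrix (Fin 3) (Fin 3) F) (hA : ∀ i j, A i j ^ 5 = A i j)
    (hgA : (g : Matrix (Fin 3) (Fin 3) F) = c • A) (x : Fin 3 → F)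
    (hx : cndQ (x 0) (x 1) (x 2)) :
    cndQ (((g : Matrix (Fin 3) (Fin 3) F) *ᵥ x) 0) (((g : Matrix (Fin 3) (Fin 3) F) *ᵥ x) 1)
      (((g : Matrix (Fin 3) (Fin 3) F) *ᵥ x) 2) := by
  have hU := (mem_GU_iff_adj hF g).1 hg.1
  have hdet : (g : Matrix (Fin 3) (Fin 3) F).det = 1 := (mem_specialLinear_iff' g).1 hg.2
  have hpres := ((mem_SUg_iff g).1 hg).1 x x
  rw [hgA, adj_smul_real c A hA, Matrix.smul_mul, Matrix.mul_smul, smul_smul, ← pow_succ] at hU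
  have hS : c ^ 6 • (Aᵀ * A) = 1 := hU
  have hd3 : c ^ 3 * A.det = 1 := by
    rw [hgA, Matrix.det_smul] at hdet
    simpa using hdet
  have hd18 : c ^ 18 * A.det ^ 2 = 1 := by
    have := congrArg Matrix.det hS
    rw [Matrix.det_smul, Matrix.det_mul, Matrix.det_transpose, Matrix.det_one] at this
    simp only [Fintype.card_fin] at this
    linear_combination this
  have hc12 : c ^ 12 = 1 := by
    linear_combination hd18 - c ^ 12 * (c ^ 3 * A.det + 1) * hd3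
  have E : ∀ k l, c ^ 6 * (A 0 k * A 0 l + A 1 k * A 1 l + A 2 k * A 2 l) =
      if k = l then 1 else 0 := by
    intro k l
    have := congrFun (congrFun hS k) l
    simpa [Matrix.mul_apply, Fin.sum_univ_three, Matrix.one_apply] using this
  have E00 := E 0 0
  have E01 := E 0 1
  have E02 := E 0 2
  have E11 := E 1 1
  have E12 := E 1 2
  have E22 := E 2 2
  simp only [if_true, Fin.reduceEq, if_false] at E00 E01 E02 E11 E12 E22
  have hw : ∀ i, ((g : Matrix (Fin 3) (Fin 3) F) *ᵥ x) i =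
      c * (A i 0 * x 0 + A i 1 * x 1 + A i 2 * x 2) := by
    intro i
    rw [hgA]
    simp [Matrix.mulVec, dotProduct, Fin.sum_univ_three]
    ring
  have hw5 : ∀ i, (((g : Matrix (Fin 3) (Fin 3) F) *ᵥ x) i) ^ 5 =
      c ^ 5 * (A i 0 * x 0 ^ 5 + A i 1 * x 1 ^ 5 + A i 2 * x 2 ^ 5) := by
    intro i
    rw [hw, mul_pow, add_pow_q hF, add_pow_q hF, mul_pow, mul_pow, mul_pow, hA, hA, hA]
  obtain ⟨hn, hq⟩ := hx
  have hnrm : nrm (((g : Matrix (Fin 3) (Fin 3) F) *ᵥ x) 0)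
      (((g : Matrix (Fin 3) (Fin 3) F) *ᵥ x) 1) (((g : Matrix (Fin 3) (Fin 3) F) *ᵥ x) 2) = 1 := by
    rw [← hn]
    simp only [hermForm, Fin.sum_univ_three] at hpres
    simp only [nrm]
    linear_combination hpres
  have hQ : c ^ 4 * ((((g : Matrix (Fin 3) (Fin 3) F) *ᵥ x) 0) ^ 2 +
      (((g : Matrix (Fin 3) (Fin 3) F) *ᵥ x) 1) ^ 2 +
      (((g : Matrix (Fin 3) (Fin 3) F) *ᵥ x) 2) ^ 2) = x 0 ^ 2 + x 1 ^ 2 + x 2 ^ 2 := by
    rw [hw, hw, hw]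
    linear_combination x 0 ^ 2 * E00 + 2 * x 0 * x 1 * E01 + 2 * x 0 * x 2 * E02 +
      x 1 ^ 2 * E11 + 2 * x 1 * x 2 * E12 + x 2 ^ 2 * E22
  have hQ3 : ((((g : Matrix (Fin 3) (Fin 3) F) *ᵥ x) 0) ^ 2 +
      (((g : Matrix (Fin 3) (Fin 3) F) *ᵥ x) 1) ^ 2 +
      (((g : Matrix (Fin 3) (Fin 3) F) *ᵥ x) 2) ^ 2) ^ 3 = (x 0 ^ 2 + x 1 ^ 2 + x 2 ^ 2) ^ 3 := by
    rw [← hQ, mul_pow, ← pow_mul, hc12, one_mul]
  refine ⟨hnrm, ?_⟩
  rw [hQ3]
  rcases hq with h | h | h | ⟨h, r01, r02, r12⟩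
  · exact Or.inl h
  · exact Or.inr (Or.inl h)
  · exact Or.inr (Or.inr (Or.inl h))
  · refine Or.inr (Or.inr (Or.inr ⟨h, ?_, ?_, ?_⟩))
    · rw [hw5, hw5, hw, hw]
      linear_combination c ^ 6 * (A 0 0 * A 1 1 - A 0 1 * A 1 0) * r01 +
        c ^ 6 * (A 0 0 * A 1 2 - A 0 2 * A 1 0) * r02 +
        c ^ 6 * (A 0 1 * A 1 2 - A 0 2 * A 1 1) * r12
    · rw [hw5, hw5, hw, hw]
      linear_combination c ^ 6 * (A 0 0 * A 2 1 - A 0 1 * A 2 0) * r01 +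
        c ^ 6 * (A 0 0 * A 2 2 - A 0 2 * A 2 0) * r02 +
        c ^ 6 * (A 0 1 * A 2 2 - A 0 2 * A 2 1) * r12
    · rw [hw5, hw5, hw, hw]
      linear_combination c ^ 6 * (A 1 0 * A 2 1 - A 1 1 * A 2 0) * r01 +
        c ^ 6 * (A 1 0 * A 2 2 - A 1 2 * A 2 0) * r02 +
        c ^ 6 * (A 1 1 * A 2 2 - A 1 2 * A 2 1) * r12

/-- S3a, hypothesis form -/
theorem real_mem_M0_of (hF : Fintype.card F = 5 ^ 2)
    (hMQ : ∀ a b c : F, cndM a b c ↔ cndQ a b c)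
    (g : GL (Fin 3) F) (hg : g ∈ SUg 3 F 5) (c : F)
    (A : Matrix (Fin 3) (Fin 3) F) (hA : ∀ i j, A i j ^ 5 = A i j)
    (hgA : (g : Matrix (Fin 3) (Fin 3) F) = c • A) : g ∈ M0 F := by
  intro w
  simp only [cndV, hMQ]
  constructor
  · intro h
    have hU := (mem_GU_iff_adj hF g).1 hg.1
    have hinv : ((g⁻¹ : GL (Fin 3) F) : Matrix (Fin 3) (Fin 3) F) = c ^ 5 • Aᵀ := by
      rw [← adj_smul_real c A hA, ← hgA]
      have h1 : adj 5 (g : Matrix (Fin 3) (Fin 3) F) =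
          adj 5 (g : Matrix (Fin 3) (Fin 3) F) * ((g : Matrix (Fin 3) (Fin 3) F) *
            ((g⁻¹ : GL (Fin 3) F) : Matrix (Fin 3) (Fin 3) F)) := by
        rw [← Units.val_mul, mul_inv_cancel, Units.val_one, mul_one]
      rw [h1, ← mul_assoc, hU, one_mul]
    have := cndQ_of_real hF g⁻¹ ((SUg 3 F 5).inv_mem hg) (c ^ 5) Aᵀ (fun i j => hA j i) hinv _ h
    rwa [Matrix.mulVec_mulVec, ← Units.val_mul, inv_mul_cancel, Units.val_one,
      Matrix.one_mulVec] at this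
  · intro h
    exact cndQ_of_real hF g hg c A hA hgA w h

end Cfsg.Agent.Lib.Helper5.SU3
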