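import Mathlib
import Cfsg.Agent.Lib.Helper5.SU3.Model
import Cfsg.Agent.Lib.Helper5.SUAsch.Bridge
import Cfsg.Agent.Lib.Helper5.SURows.Geo
import Cfsg.Agent.Lib.Helper9.AschU.Base

set_option autoImplicit false

/-! # SU_3(5): the orthogonal subfield group stabilises the invariant set (hypothesis form) -/

namespace Cfsg.Agent.Lib.Helper5.SU3

open Cfsg Cfsg.Geo Matrix Cfsg.Agent.Lib.Helper5.SUAsch Cfsg.Agent.Lib.Helper5
  Cfsg.Agent.Lib.Helper13 Cfsg.Agent.Lib.Helper5.SURows Cfsg.Agent.Lib.Helper9.AschU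
open scoped MatrixGroups

variable {F : Type*} [Field F] [Fintype F]

theorem pow_five_of_mem (hF : Fintype.card F = 5 ^ 2) (F₀ : Subfield F)
    (hc : Fintype.card F = Nat.card F₀ ^ 2) {y : F} (hy : y ∈ F₀) : y ^ 5 = y := by
  classical
  have h5 : Nat.card F₀ = 5 := by
    rw [hF] at hc
    exact (Nat.pow_left_injective (n := 2) (by norm_num) hc).symm
  have hpow : (⟨y, hy⟩ : F₀) ^ 5 = ⟨y, hy⟩ := by
    have := FiniteField.pow_card (⟨y, hy⟩ : F₀)
    rwa [← Nat.card_eq_fintype_card, h5] at this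
  have := congrArg (Subtype.val) hpow
  simpa using this

/-- elements of the standard subfield group -/
theorem exists_of_mem_subfield_one (F₀ : Subfield F) (g : GL (Fin 3) F)
    (hg : g ∈ subfieldSubgroup F₀ (1 : GL (Fin 3) F)) :
    ∃ (c : F) (A : Matrix (Fin 3) (Fin 3) F), (∀ i j, A i j ∈ F₀) ∧
      (g : Matrix (Fin 3) (Fin 3) F) = c • A := by
  obtain ⟨y, hy, rfl⟩ := hg
  obtain ⟨a, ha, z, hz, rfl⟩ := Subgroup.mem_sup_of_normal_right.1 hy
  obtain ⟨m, rfl⟩ := ha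
  rw [mem_scalars_iff] at hz
  obtain ⟨c, hc'⟩ := hz
  refine ⟨c, (m.1).map F₀.subtype, fun i j => (m.1 i j).2, ?_⟩
  simp only [MulEquiv.coe_toMonoidHom, MulAut.conj_apply, one_mul, inv_one, mul_one, Units.val_mul,
    hc']
  rw [Matrix.mul_smul, mul_one]
  rfl

/-- S3b, hypothesis form -/
theorem subfield_le_M0_of (hF : Fintype.card F = 5 ^ 2)
    (hreal : ∀ (g : GL (Fin 3) F), g ∈ SUg 3 F 5 → ∀ (c : F) (A : Matrix (Fin 3) (Fin 3) F),
      (∀ i j, A i j ^ 5 = A i j) → (g : Matrix (Fin 3) (Fin 3) F) = c • A → g ∈ M0 F)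
    (F₀ : Subfield F) (hc : Fintype.card F = Nat.card F₀ ^ 2) :
    subfieldSubgroup F₀ (1 : GL (Fin 3) F) ⊓ SUg 3 F 5 ≤ M0 F := by
  intro g hg
  obtain ⟨hg1, hg2⟩ := Subgroup.mem_inf.mp hg
  obtain ⟨c, A, hA, hgA⟩ := exists_of_mem_subfield_one F₀ g hg1
  exact hreal g hg2 c A (fun i j => pow_five_of_mem hF F₀ hc (hA i j)) hgA

/-- F3d, hypothesis form -/
theorem exists_G1_of (hF : Fintype.card F = 5 ^ 2) (h5 : (5 : F) = 0)
    (hreal : ∀ (g : GL (Fin 3) F), g ∈ SUg 3 F 5 → ∀ (c : F) (A : Matrix (Fin 3) (Fin 3) F),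
      (∀ i j, A i j ^ 5 = A i j) → (g : Matrix (Fin 3) (Fin 3) F) = c • A → g ∈ M0 F) :
    ∃ a : GL (Fin 3) F, (a : Matrix (Fin 3) (Fin 3) F) = G1 F ∧ a ∈ SUg 3 F 5 ∧ a ∈ M0 F := by
  have hdet : (G1 F).det = 1 := by
    rw [Matrix.det_fin_three]
    simp [G1]
    linear_combination (-1 : F) * h5
  let a : GL (Fin 3) F := Matrix.GeneralLinearGroup.mkOfDetNeZero (G1 F)
    (by rw [hdet]; exact one_ne_zero)
  have ha : (a : Matrix (Fin 3) (Fin 3) F) = G1 F := rfl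
  have h25 : (2 : F) ^ 5 = 2 := by linear_combination (6 : F) * h5
  have haSU : a ∈ SUg 3 F 5 := by
    refine Subgroup.mem_inf.2 ⟨?_, ?_⟩
    · rw [mem_GU_iff_adj hF, ha]
      ext i j
      fin_cases i <;> fin_cases j <;>
        simp [adj, G1, Matrix.mul_apply, Fin.sum_univ_three, h25] <;>
        linear_combination h5
    · rw [mem_specialLinear_iff', ha, hdet]
  refine ⟨a, ha, haSU, hreal a haSU 1 (G1 F) ?_ (by rw [ha, one_smul])⟩
  intro i j
  fin_cases i <;> fin_cases j <;> simp [G1, h25]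

end Cfsg.Agent.Lib.Helper5.SU3
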