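import Mathlib
import Cfsg.Agent.Lib.Helper5.SU3.Model
import Cfsg.Agent.Lib.Helper5.SU3.S3b

set_option autoImplicit false

/-! # SU_3(5): a diagonal element outside the orthogonal subfield group (hypothesis form) -/

namespace Cfsg.Agent.Lib.Helper5.SU3

open Cfsg Cfsg.Geo Matrix Cfsg.Agent.Lib.Helper5.SUAsch Cfsg.Agent.Lib.Helper5
  Cfsg.Agent.Lib.Helper13 Cfsg.Agent.Lib.Helper9.AschU
open scoped MatrixGroups

variable {F : Type*} [Field F] [Fintype F]

/-- S4, hypothesis form -/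
theorem exists_diag_of (hF : Fintype.card F = 5 ^ 2) (h5 : (5 : F) = 0) (t : F) (ht : t ^ 2 = 2)
    (F₀ : Subfield F) (hc : Fintype.card F = Nat.card F₀ ^ 2) :
    ∃ e ∈ SUg 3 F 5, e ∈ M0 F ∧ e ∉ subfieldSubgroup F₀ (1 : GL (Fin 3) F) := by
  set ω : F := 2 + 2 * t with hω
  have h1 : ω ^ 2 + ω + 1 = 0 := by
    rw [hω]; linear_combination 4 * ht + (3 + 2 * t) * h5
  have h3 : ω ^ 3 = 1 := by linear_combination (ω - 1) * h1
  have h30 : (3 : F) ≠ 0 := by
    intro h
    have : (1 : F) = 0 := by linear_combination 2 * h - h5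
    exact one_ne_zero this
  have hω1 : ω ≠ 1 := by
    intro h
    rw [h] at h1
    apply h30
    linear_combination h1
  have hω0 : ω ≠ 0 := by
    intro h
    rw [h] at h3
    simp at h3
  have hdet : (Matrix.diagonal ![ω, ω ^ 2, 1] : Matrix (Fin 3) (Fin 3) F).det = 1 := by
    rw [Matrix.det_diagonal, Fin.prod_univ_three]
    simp
    linear_combination h3
  let e : GL (Fin 3) F := Matrix.GeneralLinearGroup.mkOfDetNeZero (Matrix.diagonal ![ω, ω ^ 2, 1])
    (by rw [hdet]; exact one_ne_zero)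
  have he : (e : Matrix (Fin 3) (Fin 3) F) = Matrix.diagonal ![ω, ω ^ 2, 1] := rfl
  have hmv : ∀ w : Fin 3 → F, (e : Matrix (Fin 3) (Fin 3) F) *ᵥ w = ![ω * w 0, ω ^ 2 * w 1, w 2] := by
    intro w
    rw [he]
    ext i
    rw [Matrix.mulVec_diagonal]
    fin_cases i <;> simp
  refine ⟨e, ?_, ?_, ?_⟩
  · rw [mem_SUg_iff]
    refine ⟨fun u v => ?_, by rw [he, hdet]⟩
    rw [hmv, hmv]
    simp only [hermForm, Fin.sum_univ_three, Matrix.cons_val_zero, Matrix.cons_val_one,
      Matrix.cons_val]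
    linear_combination (u 0 * v 0 ^ 5 * (ω ^ 3 + 1) + u 1 * v 1 ^ 5 * (ω ^ 9 + ω ^ 6 + ω ^ 3 + 1)) * h3
  · intro w
    rw [hmv]
    have a6 : (ω * w 0) ^ 6 = w 0 ^ 6 := by
      linear_combination (w 0 ^ 6 * (ω ^ 3 + 1)) * h3
    have b6 : (ω ^ 2 * w 1) ^ 6 = w 1 ^ 6 := by
      linear_combination (w 1 ^ 6 * (ω ^ 9 + ω ^ 6 + ω ^ 3 + 1)) * h3
    have pr : ω * w 0 * (ω ^ 2 * w 1) * w 2 = w 0 * w 1 * w 2 := by
      linear_combination (w 0 * w 1 * w 2) * h3
    simp only [cndV, cndM, nrm, Matrix.cons_val_zero, Matrix.cons_val_one, Matrix.cons_val, a6, b6,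
      pr]
  · intro hmem
    obtain ⟨c, A, hA, hcA⟩ := exists_of_mem_subfield_one F₀ e hmem
    rw [he] at hcA
    have e22 : (1 : F) = c * A 2 2 := by
      have := congrFun (congrFun hcA 2) 2
      simpa using this
    have e00 : ω = c * A 0 0 := by
      have := congrFun (congrFun hcA 0) 0
      simpa using this
    have hA22 : A 2 2 ≠ 0 := by
      intro h
      rw [h, mul_zero] at e22
      exact one_ne_zero e22
    have hcF : c ∈ F₀ := by
      have : c = (A 2 2)⁻¹ := by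
        field_simp
        exact e22.symm
      rw [this]
      exact F₀.inv_mem (hA 2 2)
    have hωF : ω ∈ F₀ := by
      rw [e00]; exact F₀.mul_mem hcF (hA 0 0)
    have h55 := pow_five_of_mem hF F₀ hc hωF
    apply hω1
    have h6 : ω * (ω - 1) = 0 := by linear_combination h55 - ω ^ 2 * h3
    rcases mul_eq_zero.1 h6 with h | h
    · exact absurd h hω0
    · linear_combination h

end Cfsg.Agent.Lib.Helper5.SU3
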