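import Cfsg.Agent.Lib.Helper5.SU3.Asm
import Cfsg.Agent.Lib.Helper5.SU3.S3a
import Cfsg.Agent.Lib.Helper5.SU3.S3b
import Cfsg.Agent.Lib.Helper5.SU3.S4
import Cfsg.Agent.Lib.Helper5.SU3.F4
import Cfsg.Agent.Lib.Helper5.SU3.REF3
import Cfsg.Agent.Lib.Helper17.SU3.F3
import Cfsg.Agent.Lib.Helper32.SU3.ROW3
import Cfsg.Agent.Lib.Helper86.SUSmall.D1e3
import Cfsg.Agent.Lib.Helper60.SUSmall.E3aA
import Cfsg.Agent.Lib.Helper37.SUSmall.E3b2
import Cfsg.Agent.Lib.Helper88.SUSmall.E3cA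

set_option autoImplicit false

/-! # SU_3(5): frame stabilisers and orthogonal subfield groups are not maximal -/

namespace Cfsg.Agent.Lib.Helper5.SU3

open Cfsg Cfsg.Geo Matrix Cfsg.Agent.Lib.Helper5.SUAsch
open scoped MatrixGroups

variable {F : Type*} [Field F] [Fintype F]

theorem real_mem_M0 (hF : Fintype.card F = 5 ^ 2) (g : GL (Fin 3) F) (hg : g ∈ SUg 3 F 5) (c : F)
    (A : Matrix (Fin 3) (Fin 3) F) (hA : ∀ i j, A i j ^ 5 = A i j)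
    (hgA : (g : Matrix (Fin 3) (Fin 3) F) = c • A) : g ∈ M0 F :=
  real_mem_M0_of hF (Cfsg.Agent.Lib.Helper17.SU3.cndM_iff_cndQ hF) g hg c A hA hgA

theorem exists_not_mem_M0 (hF : Fintype.card F = 5 ^ 2) : ∃ s ∈ SUg 3 F 5, s ∉ M0 F := by
  obtain ⟨t, ht⟩ := Cfsg.Agent.Lib.Helper17.SU3.exists_t hF
  exact exists_not_mem_M0_of hF (Cfsg.Agent.Lib.Helper17.SU3.five_eq_zero hF) t ht

/-- the stabiliser of an orthogonal frame is not maximal in `SU_3(5)` -/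
theorem frame3_q5_not_max (hF : Fintype.card F = 5 ^ 2)
    (D : Fin 3 → Submodule F (Fin 3 → F))
    (hD : IsNondegenerateMDecomposition (hermForm 3 F 5) 1 D) :
    ¬ IsMaximalIn (SUg 3 F 5) (decompositionStabilizer D ⊓ SUg 3 F 5) :=
  frame3_q5_not_max_of hF
    (exists_G1_of hF (Cfsg.Agent.Lib.Helper17.SU3.five_eq_zero hF) (real_mem_M0 hF))
    (exists_not_mem_M0 hF) D hD

/-- the orthogonal subfield group is not maximal in `SU_3(5)`, given the normal form -/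
theorem so3_q5_not_max_of' (hF : Fintype.card F = 5 ^ 2) (F₀ : Subfield F) (P : GL (Fin 3) F)
    (hc : Fintype.card F = Nat.card F₀ ^ 2)
    (hT : ∃ T ∈ GU 3 F 5, ∀ g : GL (Fin 3) F,
      g ∈ subfieldSubgroup F₀ P ↔ T⁻¹ * g * T ∈ subfieldSubgroup F₀ 1) :
    ¬ IsMaximalIn (SUg 3 F 5) (subfieldSubgroup F₀ P ⊓ SUg 3 F 5) := by
  obtain ⟨t, ht⟩ := Cfsg.Agent.Lib.Helper17.SU3.exists_t hF
  exact so3_q5_not_max_of F₀ P hT (subfield_le_M0_of hF (real_mem_M0 hF) F₀ hc)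
    (exists_diag_of hF (Cfsg.Agent.Lib.Helper17.SU3.five_eq_zero hF) t ht F₀ hc)
    (exists_not_mem_M0 hF)

end Cfsg.Agent.Lib.Helper5.SU3
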